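import Cfsg.Agent.H58.Rec.CentC
import Cfsg.Agent.H867.Rec.Gen

/-!
# Fixed points in the module of a reduction (helper867, task 2855, S3484)

`τ : Y → X` with elementary abelian kernel `V`, `st τ v` is the stabiliser in `X` of `v ∈ V`.

* `mem_st_iff` : `x ∈ st τ v` iff every lift of `x` commutes with `v`;
* `Mod.hasOrd_of_st` : an element of order `n` prime to `p` in `st τ v`, `v ≠ 1` : `Y` has an element of order `n * p`;
* `Mod.cent_fix` : `a` of prime order `s ≠ p` fixes `v`, `⟨x^⟨y⟩⟩ : ⟨y⟩` is a Frobenius group in `C(a)`, `Y` has no element of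
  order `s * (n * p)` : `x` fixes `v`;
* `Mod.exists_st` : noncyclic abelian `s`-subgroups.
-/

set_option autoImplicit false
set_option linter.unusedSectionVars false

namespace Cfsg.Agent.H867.Rec

open Subgroup Cfsg.Agent.H58.Rec

universe u v w

section

variable {Y : Type u} {X : Type v} [Group Y] [Finite Y] [Group X] {τ : Y →* X} {p : ℕ}

/-- the stabiliser of `v` -/
def st (τ : Y →* X) (v : Y) : Subgroup X := (centralizer ({v} : Set Y)).map τ

theorem mem_st {v : Y} {y : Y} (h : y * v = v * y) : τ y ∈ st τ v :=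
  ⟨y, mem_centralizer_singleton_iff.2 h, rfl⟩

theorem lift_comm (h : Mod τ p) {v : Y} (hv : v ∈ τ.ker) {y : Y} (hy : τ y ∈ st τ v) : y * v = v * y := by
  obtain ⟨z, hz, hzy⟩ := hy
  have hzv : z * v = v * z := mem_centralizer_singleton_iff.1 hz
  have hk : z⁻¹ * y ∈ τ.ker := by rw [MonoidHom.mem_ker, map_mul, map_inv, hzy, inv_mul_cancel]
  have h1 := h.comm _ hk v hv
  calc y * v = z * (z⁻¹ * y * v) := by group
    _ = z * (v * (z⁻¹ * y)) := by rw [h1]
    _ = z * v * z⁻¹ * y := by group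
    _ = v * z * z⁻¹ * y := by rw [hzv]
    _ = v * y := by group

/-- conjugation -/
theorem conj_st {v : Y} {x : X} (hx : x ∈ st τ v) (g : Y) : τ g * x * (τ g)⁻¹ ∈ st τ (g * v * g⁻¹) := by
  obtain ⟨z, hz, rfl⟩ := hx
  have hzv : z * v = v * z := mem_centralizer_singleton_iff.1 hz
  have h1 : τ g * τ z * (τ g)⁻¹ = τ (g * z * g⁻¹) := by rw [map_mul, map_mul, map_inv]
  rw [h1]
  apply mem_st
  calc g * z * g⁻¹ * (g * v * g⁻¹) = g * (z * v) * g⁻¹ := by group
    _ = g * (v * z) * g⁻¹ := by rw [hzv]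
    _ = g * v * g⁻¹ * (g * z * g⁻¹) := by group

theorem conj_st_iff {v : Y} {x : X} (g : Y) : τ g * x * (τ g)⁻¹ ∈ st τ (g * v * g⁻¹) ↔ x ∈ st τ v := by
  refine ⟨fun h => ?_, fun h => conj_st h g⟩
  have h1 := conj_st h g⁻¹
  have e1 : τ g⁻¹ * (τ g * x * (τ g)⁻¹) * (τ g⁻¹)⁻¹ = x := by rw [map_inv]; group
  have e2 : g⁻¹ * (g * v * g⁻¹) * g⁻¹⁻¹ = v := by group
  rwa [e1, e2] at h1

theorem orderOf_ker (h : Mod τ p) (hp : p.Prime) {v : Y} (hv : v ∈ τ.ker) (hv1 : v ≠ 1) : orderOf v = p := by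
  rcases (Nat.dvd_prime hp).1 (orderOf_dvd_of_pow_eq_one (h.pow v hv)) with h4 | h4
  · exact absurd (orderOf_eq_one_iff.1 h4) hv1
  · exact h4

/-- a lift of the same order -/
theorem exists_lift_order (h : Mod τ p) {x : X} {n : ℕ} (hx : orderOf x = n) (hn : Nat.Coprime p n) :
    ∃ y : Y, τ y = x ∧ orderOf y = n := by
  obtain ⟨y, hy⟩ := h.surj x
  have h1 : y ^ n ∈ τ.ker := by rw [MonoidHom.mem_ker, map_pow, hy, ← hx, pow_orderOf_eq_one]
  have h2 : (y ^ p) ^ n = 1 := by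
    rw [← pow_mul, mul_comm, pow_mul]
    exact h.pow _ h1
  obtain ⟨m, hm⟩ := exists_pow_eq_self_of_coprime (n := p) (x := x) (by rw [hx]; exact hn)
  have h3 : τ ((y ^ p) ^ m) = x := by rw [map_pow, map_pow, hy, hm]
  refine ⟨(y ^ p) ^ m, h3, Nat.dvd_antisymm ?_ ?_⟩
  · apply orderOf_dvd_of_pow_eq_one
    rw [← pow_mul, mul_comm, pow_mul, h2, one_pow]
  · rw [← hx, ← h3]
    exact orderOf_map_dvd τ _

theorem hasOrd_of_st (h : Mod τ p) (hp : p.Prime) {v : Y} (hv : v ∈ τ.ker) (hv1 : v ≠ 1) {x : X}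
    (hxv : x ∈ st τ v) {n : ℕ} (hx : orderOf x = n) (hn : Nat.Coprime p n) : HasOrd Y (n * p) := by
  obtain ⟨y, hy, hyn⟩ := exists_lift_order h hx hn
  exact hasOrd_mul (lift_comm h hv (hy ▸ hxv)) hyn (orderOf_ker h hp hv hv1) hn.symm

/-- fixed points of a noncyclic abelian subgroup -/
theorem exists_st (h : Mod τ p) (hp : p.Prime) {s : ℕ} (hs : s.Prime) (hsp : s ≠ p) {A : Subgroup X}
    (hA : IsPGroup s A) (hAab : ∀ a ∈ A, ∀ b ∈ A, a * b = b * a) (hAc : ¬ IsCyclic A) :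
    ∃ a ∈ A, a ≠ 1 ∧ ∃ v ∈ τ.ker, v ≠ 1 ∧ a ∈ st τ v := by
  obtain ⟨y, hyA, hy1, v, hv, hv1, hyv⟩ := h.exists_fix hp hs hsp hA hAab hAc
  exact ⟨τ y, hyA, hy1, v, hv, hv1, mem_st hyv⟩

/-- **The centralizer of an element with fixed points.** -/
theorem cent_fix (h : Mod τ p) (hp : p.Prime) {s : ℕ} (hs : s.Prime) (hsp : s ≠ p) {a : X} (ha : orderOf a = s)
    {q n : ℕ} (hq : q.Prime) (hqp : q ≠ p) (hsn : ¬ s ∣ n) {T : Subgroup X} {c : X} (hT : IsPGroup q T)
    (hTa : ∀ t ∈ T, t * a = a * t) (hca : c * a = a * c) (hc : c ∈ normalizer (T : Set X)) (hcn : orderOf c = n)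
    (hfree : ∀ j, 0 < j → j < n → ∀ t ∈ T, t * c ^ j = c ^ j * t → t = 1) (hno : ¬ HasOrd Y (s * (n * p)))
    {v : Y} (hv : v ∈ τ.ker) (hav : a ∈ st τ v) : ∀ t ∈ T, t ∈ st τ v := by
  classical
  have hfs : Fact s.Prime := ⟨hs⟩
  have hfq : Fact q.Prime := ⟨hq⟩
  obtain ⟨b, hb, hbs⟩ := exists_lift_order h ha ((Nat.coprime_primes hp hs).2 (Ne.symm hsp))
  have hbv : b * v = v * b := lift_comm h hv (hb ▸ hav)
  -- the centralizer covers
  have hVcop : (Nat.card τ.ker).Coprime s := by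
    have h1 : IsPGroup p τ.ker := by
      rintro ⟨x, hx⟩
      exact ⟨1, by rw [pow_one]; exact Subtype.ext (h.pow x hx)⟩
    have : Fact p.Prime := ⟨hp⟩
    obtain ⟨k, hk⟩ := IsPGroup.iff_card.1 h1
    rw [hk]
    exact Nat.Coprime.pow_left k ((Nat.coprime_primes hp hs).2 (Ne.symm hsp))
  have hcov : ∀ x ∈ centralizer ({a} : Set X), ∃ g ∈ centralizer ({b} : Set Y), τ g = x := by
    intro x hx
    obtain ⟨g, rfl⟩ := h.surj x
    have hB : IsPGroup s (zpowers b) := IsPGroup.of_card (n := 1) (by rw [Nat.card_zpowers, hbs, pow_one])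
    have h1 := Cfsg.Agent.PLocal.CoprimeLift.map_centralizer_mk (p := s) τ.ker (zpowers b) hVcop hB
    have h2 : (g : Y ⧸ τ.ker) ∈
        centralizer (((zpowers b).map (QuotientGroup.mk' τ.ker) : Subgroup (Y ⧸ τ.ker)) : Set (Y ⧸ τ.ker)) := by
      rw [mem_centralizer_iff]
      rintro - ⟨z, hz, rfl⟩
      obtain ⟨k, rfl⟩ := mem_zpowers_iff.1 hz
      rw [QuotientGroup.mk'_apply, ← QuotientGroup.mk_mul, ← QuotientGroup.mk_mul, QuotientGroup.eq,
        MonoidHom.mem_ker]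
      have h3 : Commute a (τ g) := (mem_centralizer_singleton_iff.1 hx).symm
      have h4 : a ^ k * τ g = τ g * a ^ k := (h3.zpow_left k).eq
      rw [map_mul, map_inv, map_mul, map_mul, map_zpow, hb, h4]
      group
    rw [← h1] at h2
    obtain ⟨g', hg', hgg⟩ := h2
    refine ⟨g', ?_, ?_⟩
    · rw [mem_centralizer_singleton_iff]
      exact (mem_centralizer_iff.1 hg' b (mem_zpowers b)).symm
    · rw [QuotientGroup.mk'_apply, QuotientGroup.eq, MonoidHom.mem_ker, map_mul, map_inv] at hgg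
      exact (inv_mul_eq_one.1 hgg)
  set C := centralizer ({b} : Set Y) with hC
  have hCb : ∀ c ∈ C, Commute c b := fun c hc => mem_centralizer_singleton_iff.1 hc
  let τ' : C →* centralizer ({a} : Set X) := (τ.comp C.subtype).codRestrict _ (by
    rintro ⟨c, hc⟩
    rw [mem_centralizer_singleton_iff]
    show τ c * a = a * τ c
    rw [← hb, ← map_mul, ← map_mul, (hCb c hc).eq])
  have hτ' : ∀ c : C, ((τ' c : centralizer ({a} : Set X)) : X) = τ c := fun c => rfl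
  have hτs : Function.Surjective τ' := by
    rintro ⟨x, hx⟩
    obtain ⟨g, hg, hgx⟩ := hcov x hx
    exact ⟨⟨g, hg⟩, Subtype.ext hgx⟩
  have hker : ∀ c : C, c ∈ τ'.ker ↔ (c : Y) ∈ τ.ker := by
    intro c
    rw [MonoidHom.mem_ker, MonoidHom.mem_ker, ← hτ', Subtype.ext_iff]
    rfl
  have hvC : v ∈ C := by
    rw [hC, mem_centralizer_singleton_iff]
    exact hbv.symm
  have hlift : ∀ m, ¬ s ∣ m → HasOrd C m → HasOrd Y (s * m) := by
    rintro m hm ⟨c, hc⟩
    have h1 : orderOf (c : Y) = m := by rw [Subgroup.orderOf_coe, hc]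
    exact hasOrd_mul (hCb c c.2).symm hbs h1 ((Nat.Prime.coprime_iff_not_dvd hs).2 hm)
  have hsp' : ¬ s ∣ p := fun h1 => hsp ((Nat.prime_dvd_prime_iff_eq hs hp).1 h1)
  -- the Frobenius group in the centralizer
  have hTC : T ≤ centralizer ({a} : Set X) := fun t ht => mem_centralizer_singleton_iff.2 (hTa t ht)
  have hcC : c ∈ centralizer ({a} : Set X) := mem_centralizer_singleton_iff.2 hca
  let T' : Subgroup (centralizer ({a} : Set X)) := T.subgroupOf _
  have hT' : IsPGroup q T' := by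
    rintro ⟨t, ht⟩
    obtain ⟨k, hk⟩ := hT ⟨t, mem_subgroupOf.1 ht⟩
    have h1 : ((t : centralizer ({a} : Set X)) : X) ^ q ^ k = 1 := congrArg (fun z : T => (z : X)) hk
    exact ⟨k, Subtype.ext (Subtype.ext h1)⟩
  have hc' : (⟨c, hcC⟩ : centralizer ({a} : Set X)) ∈ normalizer (T' : Set (centralizer ({a} : Set X))) := by
    rw [mem_normalizer_iff]
    intro z
    show z ∈ T.subgroupOf _ ↔ _ ∈ T.subgroupOf _
    rw [mem_subgroupOf, mem_subgroupOf]
    exact mem_normalizer_iff.1 hc z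
  have hcn' : orderOf (⟨c, hcC⟩ : centralizer ({a} : Set X)) = n := by rw [Subgroup.orderOf_mk, hcn]
  have hfree' : ∀ j, 0 < j → j < n → ∀ t ∈ T', t * (⟨c, hcC⟩ : centralizer ({a} : Set X)) ^ j =
      (⟨c, hcC⟩ : centralizer ({a} : Set X)) ^ j * t → t = 1 := by
    intro j hj hjn t ht htc
    exact Subtype.ext (hfree j hj hjn t (mem_subgroupOf.1 ht) (congrArg Subtype.val htc))
  have hact : ¬ ∃ y, τ' y ∈ T' ∧ ∃ v ∈ τ'.ker, y * v ≠ v * y := by
    intro hact
    apply hno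
    apply hlift _ (fun h1 => (hs.dvd_mul.1 h1).elim hsn hsp')
    refine frob_ord τ' hτs hp ?_ ?_ hq hqp hT' hc' hcn' hfree' hact
    · intro a ha b hb
      exact Subtype.ext (h.comm a ((hker a).1 ha) b ((hker b).1 hb))
    · intro a ha
      exact Subtype.ext (h.pow a ((hker a).1 ha))
  push Not at hact
  intro t ht
  obtain ⟨g, hg⟩ := hτs ⟨t, hTC ht⟩
  have h1 := hact g (by rw [hg]; exact mem_subgroupOf.2 ht) ⟨v, hvC⟩ ((hker _).2 hv)
  have h2 : τ (g : Y) = t := congrArg Subtype.val hg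
  rw [← h2]
  exact mem_st (congrArg Subtype.val h1)

/-- the version with relations -/
theorem cent_fix_rel (h : Mod τ p) (hp : p.Prime) {s : ℕ} (hs : s.Prime) (hsp : s ≠ p) {a : X} (ha : orderOf a = s)
    {q n : ℕ} (hq : q.Prime) (hqp : q ≠ p) (hsn : s ≠ n) (hn : n.Prime) (hn2 : n ≠ 2) (hqn : q ≠ n) {x y : X}
    (hx : x ^ q = 1) (hy : y ^ n = 1) (hy1 : y ≠ 1) (hxy : (x * y) ^ n = 1)
    (hc : ∀ k, 0 < k → 2 * k < n → Commute x (y ^ k * x * (y ^ k)⁻¹)) (hxa : x * a = a * x) (hya : y * a = a * y)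
    (hno : ¬ HasOrd Y (s * (n * p))) {v : Y} (hv : v ∈ τ.ker) (hav : a ∈ st τ v) (k : ℕ) :
    y ^ k * x * (y ^ k)⁻¹ ∈ st τ v := by
  have hfn : Fact n.Prime := ⟨hn⟩
  have hcomm := comm_all hn.pos (hn.odd_of_ne_two hn2) hy hc
  set B : Set X := {b | ∃ k : ℕ, b = y ^ k * x * (y ^ k)⁻¹} with hBdef
  have hB : ∀ a ∈ B, ∀ b ∈ B, a * b = b * a := by
    have key : ∀ i k : ℕ, Commute (y ^ i * x * (y ^ i)⁻¹) (y ^ (i + k) * x * (y ^ (i + k))⁻¹) := by
      intro i k
      have h1 : x * (y ^ k * x * (y ^ k)⁻¹) = (y ^ k * x * (y ^ k)⁻¹) * x := hcomm k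
      show _ * _ = _ * _
      rw [pow_add]
      calc y ^ i * x * (y ^ i)⁻¹ * (y ^ i * y ^ k * x * (y ^ i * y ^ k)⁻¹)
          = y ^ i * (x * (y ^ k * x * (y ^ k)⁻¹)) * (y ^ i)⁻¹ := by group
        _ = y ^ i * ((y ^ k * x * (y ^ k)⁻¹) * x) * (y ^ i)⁻¹ := by rw [h1]
        _ = _ := by group
    rintro a ⟨i, rfl⟩ b ⟨j, rfl⟩
    rcases Nat.le_total i j with hij | hij
    · obtain ⟨k, rfl⟩ := Nat.exists_eq_add_of_le hij
      exact (key i k).eq
    · obtain ⟨k, rfl⟩ := Nat.exists_eq_add_of_le hij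
      exact (key j k).symm.eq
  have hBq : ∀ b ∈ B, b ^ q = 1 := by
    rintro b ⟨k, rfl⟩
    rw [conj_pow, hx, mul_one, mul_inv_cancel]
  have hcB : ∀ b ∈ B, y * b * y⁻¹ ∈ closure B := by
    rintro b ⟨k, rfl⟩
    apply Subgroup.subset_closure
    exact ⟨k + 1, by rw [pow_succ']; group⟩
  have hTq := pow_closure hB hBq
  have hnorm : ∀ a ∈ closure B, (a * y) ^ n * (y ^ n)⁻¹ = 1 := by
    refine norm_closure hB hcB ?_
    rintro b ⟨k, rfl⟩
    have h1 : y ^ k * x * (y ^ k)⁻¹ * y = y ^ k * (x * y) * (y ^ k)⁻¹ := by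
      have : (y ^ k)⁻¹ * y = y * (y ^ k)⁻¹ := (((Commute.refl y).pow_left k).inv_left).eq
      calc y ^ k * x * (y ^ k)⁻¹ * y = y ^ k * x * ((y ^ k)⁻¹ * y) := by group
        _ = y ^ k * x * (y * (y ^ k)⁻¹) := by rw [this]
        _ = _ := by group
    rw [h1, conj_pow, hxy, mul_one, mul_inv_cancel, hy, inv_one, one_mul]
  have hyo : orderOf y = n := orderOf_eq_prime hy hy1
  refine cent_fix h hp hs hsp ha hq hqp (T := closure B) (c := y) (n := n) ?_ ?_ ?_ hya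
    (mem_normalizer_closure hcB hn.pos hy) hyo ?_ hno hv hav _ (Subgroup.subset_closure ⟨k, rfl⟩)
  · intro h1
    rcases (Nat.dvd_prime hn).1 h1 with h2 | h2
    · exact hs.one_lt.ne' h2
    · exact hsn h2
  · rintro ⟨b, hb⟩
    exact ⟨1, by rw [pow_one]; exact Subtype.ext (hTq b hb)⟩
  · have h1 : closure B ≤ centralizer ({a} : Set X) := by
      rw [closure_le]
      rintro b ⟨k, rfl⟩
      rw [SetLike.mem_coe, mem_centralizer_singleton_iff]
      have h2 : Commute (y ^ k) a := (show Commute y a from hya).pow_left k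
      exact ((h2.mul_left hxa).mul_left h2.inv_left).eq
    exact fun t ht => mem_centralizer_singleton_iff.1 (h1 ht)
  · intro j hj hjn b hb hbc
    obtain ⟨m, hm⟩ := exists_pow_eq_self_of_coprime (n := j) (x := y) (by
      rw [hyo]
      exact (Nat.coprime_of_lt_prime hj.ne' hjn hn).symm)
    have h1 : Commute b y := by
      rw [← hm]
      exact Commute.pow_right hbc m
    exact free_of_norm ((Nat.coprime_primes hq hn).2 hqn) (hTq b hb) (hnorm b hb) h1

end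

end Cfsg.Agent.H867.Rec
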